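-- Team project OPAR (S5989), helper13: common tools for the unipotent derangements
-- [UNIE] / [UNI3] (square-zero case) and the block isometry `fromBlocks A 0 0 (A⁻¹)ᵀ`.
import Mathlib
import Cfsg.Agent.Lib.Helper36.AltEven
import Cfsg.Agent.Lib.Helper70.OPar.Defs
import Cfsg.Agent.Lib.Helper84.OPar.PlusQ
import Cfsg.Agent.Lib.Helper87.OHyp.Perp
import Cfsg.Agent.Lib.Helper97.OHyp.OddOmega

set_option autoImplicit false
open scoped MatrixGroups
open Matrix

namespace Cfsg.Agent.Lib.Helper13.OPar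

open Cfsg.Agent.Lib.Helper23.OHyp Cfsg.Agent.Lib.Helper70.OPar

universe u

section generic

variable {F : Type u} [Field F] {ι : Type} [Fintype ι] [DecidableEq ι]

/-- The restriction of `f` to an invariant subspace has the image `W.map f`. -/
theorem map_range_restrict (f : (ι → F) →ₗ[F] (ι → F)) (W : Submodule F (ι → F))
    (hW : ∀ w ∈ W, f w ∈ W) :
    (LinearMap.range (f.restrict hW)).map W.subtype = W.map f := by
  ext v
  constructor
  · rintro ⟨_, ⟨w, rfl⟩, rfl⟩
    exact ⟨w, w.2, rfl⟩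
  · rintro ⟨w, hw, rfl⟩
    exact ⟨_, ⟨⟨w, hw⟩, rfl⟩, rfl⟩

theorem finrank_range_restrict (f : (ι → F) →ₗ[F] (ι → F)) (W : Submodule F (ι → F))
    (hW : ∀ w ∈ W, f w ∈ W) :
    Module.finrank F (LinearMap.range (f.restrict hW)) = Module.finrank F (W.map f) := by
  rw [← map_range_restrict f W hW, Submodule.finrank_map_subtype_eq]

/-- Rank–nullity on an invariant subspace for a square-zero map. -/
theorem two_mul_finrank_map_le (f : (ι → F) →ₗ[F] (ι → F)) (hf : ∀ v, f (f v) = 0)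
    (W : Submodule F (ι → F)) (hW : ∀ w ∈ W, f w ∈ W) :
    2 * Module.finrank F (W.map f) ≤ Module.finrank F W := by
  have h1 := LinearMap.finrank_range_add_finrank_ker (f.restrict hW)
  have h2 : LinearMap.range (f.restrict hW) ≤ LinearMap.ker (f.restrict hW) := by
    rintro _ ⟨w, rfl⟩
    rw [LinearMap.mem_ker]
    apply Subtype.ext
    simp only [LinearMap.coe_restrict_apply, ZeroMemClass.coe_zero]
    exact hf _
  have h3 := Submodule.finrank_mono h2
  rw [finrank_range_restrict f W hW] at h1 h3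
  omega

/-- Additivity of the rank over a decomposition. -/
theorem rank_le_finrank_map_add (N : Matrix ι ι F) (W W' : Submodule F (ι → F))
    (h : W ⊔ W' = ⊤) :
    N.rank ≤ Module.finrank F (W.map (Matrix.toLin' N)) +
      Module.finrank F (W'.map (Matrix.toLin' N)) := by
  have h1 : N.rank = Module.finrank F (LinearMap.range (Matrix.toLin' N)) := rfl
  rw [h1, LinearMap.range_eq_map, ← h, Submodule.map_sup]
  exact Submodule.finrank_add_le_finrank_add_finrank _ _

/-- Parity: for an isometry `x` with `(x - 1)² = 0`, the rank of `x - 1` on an invariant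
nondegenerate subspace is even. -/
theorem even_finrank_map_of_sq_zero (Q : (ι → F) → F)
    (hQ : Cfsg.Geo.IsNondegenerateQuadraticForm Q) (h2 : (2 : F) ≠ 0)
    (x : Matrix ι ι F) (hiso : ∀ v, Q (x *ᵥ v) = Q v) (hN : (x - 1) * (x - 1) = 0)
    (W : Submodule F (ι → F)) (hInv : Inv x W) (hNd : Nd Q W) :
    Even (Module.finrank F (W.map (Matrix.toLin' (x - 1)))) := by
  classical
  have hbil := hQ.polar_bilinear
  have hsymm : ∀ a b : ι → F, QuadraticMap.polar Q a b = QuadraticMap.polar Q b a :=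
    fun a b => QuadraticMap.polar_comm Q a b
  have hisoB : ∀ a b : ι → F,
      QuadraticMap.polar Q (x *ᵥ a) (x *ᵥ b) = QuadraticMap.polar Q a b := by
    intro a b
    simp only [QuadraticMap.polar]
    rw [← Matrix.mulVec_add, hiso, hiso, hiso]
  set f : (ι → F) →ₗ[F] (ι → F) := Matrix.toLin' (x - 1) with hfdef
  have hfx : ∀ v, x *ᵥ v = v + f v := by
    intro v
    rw [hfdef, Matrix.toLin'_apply, Matrix.sub_mulVec, Matrix.one_mulVec]
    abel
  have hff : ∀ v, f (f v) = 0 := by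
    intro v
    rw [hfdef, Matrix.toLin'_apply, Matrix.toLin'_apply, Matrix.mulVec_mulVec, hN,
      Matrix.zero_mulVec]
  have hfW : ∀ w ∈ W, f w ∈ W := by
    intro w hw
    have h1 : x *ᵥ w ∈ W := hInv ⟨w, hw, by simp [Matrix.toLin'_apply]⟩
    have h3 : f w = x *ᵥ w - w := by rw [hfx]; abel
    rw [h3]
    exact W.sub_mem h1 hw
  -- the basic identity
  have hid : ∀ a b : ι → F, QuadraticMap.polar Q a (f b) + QuadraticMap.polar Q (f a) b
      + QuadraticMap.polar Q (f a) (f b) = 0 := by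
    intro a b
    have h := hisoB a b
    rw [hfx, hfx, hbil.add_left, hbil.add_right, hbil.add_right] at h
    linear_combination h
  have hfab : ∀ a b : ι → F, QuadraticMap.polar Q (f a) (f b) = 0 := by
    intro a b
    have h := hid a (f b)
    rw [hff] at h
    have h0 : ∀ c : ι → F, QuadraticMap.polar Q c 0 = 0 := by
      intro c
      have := hbil.smul_right (0 : F) c 0
      simpa using this
    rw [h0, h0] at h
    linear_combination h
  have hskew : ∀ a b : ι → F, QuadraticMap.polar Q (f a) b = - QuadraticMap.polar Q a (f b) := by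
    intro a b
    have h := hid a b
    rw [hfab] at h
    linear_combination h
  -- the alternating form on `W`
  let A : LinearMap.BilinForm F W := LinearMap.mk₂ F
    (fun u v : W => QuadraticMap.polar Q (f (u : ι → F)) (v : ι → F))
    (by
      intro a b c
      simp only [Submodule.coe_add, map_add, hbil.add_left])
    (by
      intro c a b
      simp only [Submodule.coe_smul, map_smul, hbil.smul_left, smul_eq_mul])
    (by
      intro a b c
      simp only [Submodule.coe_add, hbil.add_right])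
    (by
      intro c a b
      simp only [Submodule.coe_smul, hbil.smul_right, smul_eq_mul])
  have hAapp : ∀ u v : W, A u v = QuadraticMap.polar Q (f (u : ι → F)) (v : ι → F) :=
    fun u v => rfl
  have hA : A.IsAlt := by
    intro u
    rw [hAapp]
    have h := hskew (u : ι → F) (u : ι → F)
    rw [hsymm (u : ι → F) (f (u : ι → F))] at h
    have h4 : (2 : F) * QuadraticMap.polar Q (f (u : ι → F)) (u : ι → F) = 0 := by
      linear_combination h
    rcases mul_eq_zero.mp h4 with h5 | h5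
    · exact absurd h5 h2
    · exact h5
  obtain ⟨k, hk⟩ := Cfsg.Agent.Lib.Helper36.alt_finrank_aux F (Module.finrank F W) W A hA rfl
  have hker : LinearMap.ker A = LinearMap.ker (f.restrict hfW) := by
    ext u
    rw [LinearMap.mem_ker, LinearMap.mem_ker]
    constructor
    · intro hu
      apply Subtype.ext
      simp only [LinearMap.coe_restrict_apply, ZeroMemClass.coe_zero]
      by_contra hne
      obtain ⟨-, y, hy, hy'⟩ := hNd _ (hfW _ u.2) hne
      apply hy'
      have h1 : A u ⟨y, hy⟩ = 0 := by rw [hu]; rfl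
      rw [hAapp] at h1
      exact h1
    · intro hu
      have hu' : f (u : ι → F) = 0 := by
        have := congrArg Subtype.val hu
        simpa using this
      ext v
      rw [hAapp, hu']
      have := hbil.smul_left (0 : F) 0 (v : ι → F)
      simpa using this
  have h1 := LinearMap.finrank_range_add_finrank_ker (f.restrict hfW)
  rw [finrank_range_restrict f W hfW, ← hker] at h1
  exact ⟨k, by omega⟩

/-- The numerical core for a square-zero unipotent isometry: an invariant nondegenerate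
subspace `W` and its invariant complement carry even ranks `2a`, `2b` of `x - 1`. -/
theorem uni_core (hP : PkgPerp.{u}) (Q : (ι → F) → F)
    (hQ : Cfsg.Geo.IsNondegenerateQuadraticForm Q) (h2 : (2 : F) ≠ 0)
    (x : Matrix ι ι F) (hiso : ∀ v, Q (x *ᵥ v) = Q v) (hdet : IsUnit x.det)
    (hN : (x - 1) * (x - 1) = 0)
    (W : Submodule F (ι → F)) (hInv : Inv x W) (hNd : Nd Q W) :
    ∃ a b : ℕ, 4 * a ≤ Module.finrank F W ∧ 4 * b + Module.finrank F W ≤ Fintype.card ι ∧
      (x - 1).rank ≤ 2 * a + 2 * b := by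
  classical
  have hNdtop : Nd Q (⊤ : Submodule F (ι → F)) := by
    intro w _ hw
    obtain ⟨⟨y, hy⟩, ⟨z, hz⟩⟩ := hQ.nondegenerate w hw
    exact ⟨⟨y, Submodule.mem_top, hy⟩, ⟨z, Submodule.mem_top, hz⟩⟩
  have hInvtop : Inv x (⊤ : Submodule F (ι → F)) := le_top
  obtain ⟨W', -, hInv', hNd', -, hsup, hfin⟩ :=
    hP F ι Q hQ x hiso hdet ⊤ W le_top hInvtop hInv hNdtop hNd
  rw [finrank_top, Module.finrank_pi, ] at hfin
  have hff : ∀ v, (Matrix.toLin' (x - 1)) ((Matrix.toLin' (x - 1)) v) = 0 := by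
    intro v
    rw [Matrix.toLin'_apply, Matrix.toLin'_apply, Matrix.mulVec_mulVec, hN, Matrix.zero_mulVec]
  have hfW : ∀ (U : Submodule F (ι → F)), Inv x U → ∀ w ∈ U, (Matrix.toLin' (x - 1)) w ∈ U := by
    intro U hU w hw
    have h1 : x *ᵥ w ∈ U := hU ⟨w, hw, by simp [Matrix.toLin'_apply]⟩
    rw [Matrix.toLin'_apply, Matrix.sub_mulVec, Matrix.one_mulVec]
    exact U.sub_mem h1 hw
  obtain ⟨a, ha⟩ := even_finrank_map_of_sq_zero Q hQ h2 x hiso hN W hInv hNd
  obtain ⟨b, hb⟩ := even_finrank_map_of_sq_zero Q hQ h2 x hiso hN W' hInv' hNd'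
  have h3 := two_mul_finrank_map_le (Matrix.toLin' (x - 1)) hff W (hfW W hInv)
  have h4 := two_mul_finrank_map_le (Matrix.toLin' (x - 1)) hff W' (hfW W' hInv')
  have h5 := rank_le_finrank_map_add (x - 1) W W' hsup
  exact ⟨a, b, by omega, by omega, by omega⟩

end generic

section plus

variable {F : Type u} [Field F] {d : ℕ}

/-- The block matrix `diag(A, A'ᵀ)`. -/
def blk (A A' : Matrix (Fin d) (Fin d) F) : Matrix (Fin d ⊕ Fin d) (Fin d ⊕ Fin d) F :=
  Matrix.fromBlocks A 0 0 A'ᵀ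

/-- `diag(A, A'ᵀ)` with `A' * A = 1` preserves `Σ xᵢ yᵢ`. -/
theorem quadFormPlus_blk (A A' : Matrix (Fin d) (Fin d) F) (h : A' * A = 1)
    (v : Fin d ⊕ Fin d → F) :
    Cfsg.quadFormPlus d F (blk A A' *ᵥ v) = Cfsg.quadFormPlus d F v := by
  have hv : v = Sum.elim (v ∘ Sum.inl) (v ∘ Sum.inr) := by
    ext (i | i) <;> rfl
  have hQ : ∀ w : Fin d ⊕ Fin d → F,
      Cfsg.quadFormPlus d F w = (w ∘ Sum.inl) ⬝ᵥ (w ∘ Sum.inr) := fun w => rfl
  rw [hQ, hQ]
  conv_lhs => rw [hv]
  rw [blk, Matrix.fromBlocks_mulVec]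
  simp only [Sum.elim_comp_inl, Sum.elim_comp_inr, Matrix.zero_mulVec, add_zero, zero_add]
  rw [Matrix.dotProduct_mulVec, Matrix.vecMul_transpose, Matrix.mulVec_mulVec, h,
    Matrix.one_mulVec]

theorem blk_mul_blk (A A' : Matrix (Fin d) (Fin d) F) (h : A' * A = 1) :
    blk A A' * blk A' A = 1 := by
  have h' : A * A' = 1 := mul_eq_one_comm.mp h
  rw [blk, blk, Matrix.fromBlocks_multiply]
  simp only [Matrix.mul_zero, Matrix.zero_mul, add_zero, zero_add]
  rw [h', ← Matrix.transpose_mul, h', Matrix.transpose_one, Matrix.fromBlocks_one]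

/-- The block isometry as an element of `GL`. -/
def blkGL (A A' : Matrix (Fin d) (Fin d) F) (h : A' * A = 1) : GL (Fin d ⊕ Fin d) F :=
  ⟨blk A A', blk A' A, blk_mul_blk A A' h, blk_mul_blk A' A (mul_eq_one_comm.mp h)⟩

theorem blkGL_val (A A' : Matrix (Fin d) (Fin d) F) (h : A' * A = 1) :
    ((blkGL A A' h : GL (Fin d ⊕ Fin d) F) : Matrix (Fin d ⊕ Fin d) (Fin d ⊕ Fin d) F)
      = Matrix.fromBlocks A 0 0 A'ᵀ := rfl

theorem blkGL_mem_isometryGroup (A A' : Matrix (Fin d) (Fin d) F) (h : A' * A = 1) :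
    blkGL A A' h ∈ Cfsg.isometryGroup F (Cfsg.quadFormPlus d F) := by
  intro u _
  exact quadFormPlus_blk A A' h u

theorem two_ne_zero_of_charP (p : ℕ) [Fact p.Prime] [CharP F p] (hp2 : p ≠ 2) : (2 : F) ≠ 0 := by
  intro h
  have h1 : ((2 : ℕ) : F) = 0 := by exact_mod_cast h
  rw [CharP.cast_eq_zero_iff F p 2] at h1
  exact hp2 ((Nat.prime_dvd_prime_iff_eq (Fact.out : p.Prime) Nat.prime_two).mp h1)

/-- An element of `Ω⁺` of order `p` with prescribed nilpotent part `x - 1 = N`, `N ^ 3 = 0`,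
built from `A' * A = 1`. -/
theorem uni_elt_of (hPQ : PkgPlusQ.{u}) (hOO : PkgOddOmega.{u}) [Fintype F]
    (p : ℕ) [Fact p.Prime] [CharP F p] (hp2 : p ≠ 2) (hd : 0 < d)
    (A A' : Matrix (Fin d) (Fin d) F) (h : A' * A = 1) (hA1 : A ≠ 1)
    (hcube : (Matrix.fromBlocks A 0 0 A'ᵀ - 1 : Matrix (Fin d ⊕ Fin d) (Fin d ⊕ Fin d) F) ^ 3
      = 0) :
    blkGL A A' h ∈ Cfsg.Geo.omegaGL (Cfsg.quadFormPlus d F) ∧ blkGL A A' h ^ p = 1 ∧
      blkGL A A' h ≠ 1 := by
  have h2 : (2 : F) ≠ 0 := two_ne_zero_of_charP p hp2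
  have hne : Nonempty (Fin d ⊕ Fin d) := ⟨Sum.inl ⟨0, hd⟩⟩
  have hp : p.Prime := Fact.out
  have hpow : blkGL A A' h ^ p = 1 := by
    apply Units.ext
    rw [Units.val_pow_eq_pow_val, blkGL_val, Units.val_one]
    have h3 : (Matrix.fromBlocks A 0 0 A'ᵀ : Matrix (Fin d ⊕ Fin d) (Fin d ⊕ Fin d) F)
        = (Matrix.fromBlocks A 0 0 A'ᵀ - 1) + 1 := by abel
    rw [h3, add_pow_char_of_commute p (Commute.one_right _), one_pow]
    have h4 : p = 3 + (p - 3) := by
      have := hp.two_le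
      omega
    rw [h4, pow_add, hcube, zero_mul, zero_add]
  have hne1 : blkGL A A' h ≠ 1 := by
    intro h1
    have h3 := congrArg (fun y : GL (Fin d ⊕ Fin d) F =>
      (y : Matrix (Fin d ⊕ Fin d) (Fin d ⊕ Fin d) F)) h1
    simp only [blkGL_val, Units.val_one] at h3
    rw [← Matrix.fromBlocks_one, Matrix.fromBlocks_inj] at h3
    exact hA1 h3.1
  refine ⟨?_, hpow, hne1⟩
  apply hOO F (Fin d ⊕ Fin d) (Cfsg.quadFormPlus d F) (hPQ F h2 d).1 h2 _
    (blkGL_mem_isometryGroup A A' h)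
  rw [orderOf_eq_prime hpow hne1]
  exact hp.odd_of_ne_two hp2

/-- The square-zero matrix with ones at `(i, i + d/2)`, `i < d/2`. -/
def n0 (F : Type u) [Field F] (d : ℕ) : Matrix (Fin d) (Fin d) F :=
  fun i j => if i.val < d / 2 ∧ j.val = i.val + d / 2 then 1 else 0

theorem n0_mul_n0 (F : Type u) [Field F] (d : ℕ) : n0 F d * n0 F d = 0 := by
  ext i k
  rw [Matrix.mul_apply]
  apply Finset.sum_eq_zero
  intro j _
  simp only [n0]
  split_ifs with h1 h2
  · omega
  · simp
  · simp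
  · simp

theorem n0_ne_zero (F : Type u) [Field F] (d : ℕ) (hd : 2 ≤ d) : n0 F d ≠ 0 := by
  intro h
  have h1 := congrFun (congrFun h ⟨0, by omega⟩) ⟨d / 2, by omega⟩
  simp [n0] at h1
  omega

/-- The nilpotent part of the element built from `n0`. -/
def nil0 (F : Type u) [Field F] (d : ℕ) : Matrix (Fin d ⊕ Fin d) (Fin d ⊕ Fin d) F :=
  Matrix.fromBlocks (n0 F d) 0 0 (-(n0 F d)ᵀ)

theorem nil0_mul_nil0 (F : Type u) [Field F] (d : ℕ) : nil0 F d * nil0 F d = 0 := by
  rw [nil0, Matrix.fromBlocks_multiply]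
  simp only [Matrix.mul_zero, Matrix.zero_mul, add_zero, zero_add, Matrix.neg_mul,
    Matrix.mul_neg, neg_neg]
  rw [← Matrix.transpose_mul, n0_mul_n0, Matrix.transpose_zero]
  simp

theorem rank_nil0 (F : Type u) [Field F] (d : ℕ) : 2 * (d / 2) ≤ (nil0 F d).rank := by
  have hed : 2 * (d / 2) ≤ d := by omega
  let r : Fin (d / 2) ⊕ Fin (d / 2) → Fin d ⊕ Fin d :=
    Sum.elim (fun i => Sum.inl ⟨i.val, by omega⟩) (fun i => Sum.inr ⟨i.val + d / 2, by omega⟩)
  let c : Fin (d / 2) ⊕ Fin (d / 2) → Fin d ⊕ Fin d :=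
    Sum.elim (fun i => Sum.inl ⟨i.val + d / 2, by omega⟩) (fun i => Sum.inr ⟨i.val, by omega⟩)
  have hsub : (nil0 F d).submatrix r c
      = Matrix.fromBlocks (1 : Matrix (Fin (d / 2)) (Fin (d / 2)) F) 0 0
        (-1 : Matrix (Fin (d / 2)) (Fin (d / 2)) F) := by
    ext (i | i) (j | j)
    · simp only [nil0, r, c, Matrix.submatrix_apply, Sum.elim_inl, Matrix.fromBlocks_apply₁₁,
        n0, Matrix.one_apply, Fin.ext_iff]
      by_cases hij : i.val = j.val
      · rw [if_pos ⟨i.isLt, by omega⟩, if_pos hij]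
      · rw [if_neg (by omega), if_neg hij]
    · simp [nil0, r, c]
    · simp [nil0, r, c]
    · simp only [nil0, r, c, Matrix.submatrix_apply, Sum.elim_inr, Matrix.fromBlocks_apply₂₂,
        n0, Matrix.neg_apply, Matrix.transpose_apply, Matrix.one_apply, Fin.ext_iff]
      by_cases hij : i.val = j.val
      · rw [if_pos ⟨j.isLt, by omega⟩, if_pos hij]
      · rw [if_neg (by omega), if_neg hij]
  have hunit : IsUnit (Matrix.fromBlocks (1 : Matrix (Fin (d / 2)) (Fin (d / 2)) F) 0 0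
      (-1 : Matrix (Fin (d / 2)) (Fin (d / 2)) F)) := by
    have hsq : Matrix.fromBlocks (1 : Matrix (Fin (d / 2)) (Fin (d / 2)) F) 0 0
        (-1 : Matrix (Fin (d / 2)) (Fin (d / 2)) F)
        * Matrix.fromBlocks (1 : Matrix (Fin (d / 2)) (Fin (d / 2)) F) 0 0
        (-1 : Matrix (Fin (d / 2)) (Fin (d / 2)) F) = 1 := by
      rw [Matrix.fromBlocks_multiply]
      simp [Matrix.fromBlocks_one]
    exact ⟨⟨_, _, hsq, hsq⟩, rfl⟩
  have h1 := Matrix.rank_of_isUnit _ hunit
  have h2 := Matrix.rank_submatrix_le (nil0 F d) r c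
  rw [hsub, h1, Fintype.card_sum, Fintype.card_fin] at h2
  omega

/-- The square-zero unipotent element of `Ω⁺_{2d}` with `x - 1 = nil0` (of rank `2 (d/2)`). -/
theorem exists_uni0 (hPQ : PkgPlusQ.{u}) (hOO : PkgOddOmega.{u}) (F : Type u) [Field F]
    [Fintype F] (p : ℕ) [Fact p.Prime] [CharP F p] (hp2 : p ≠ 2) (d : ℕ) (hd : 2 ≤ d) :
    ∃ x : GL (Fin d ⊕ Fin d) F, x ∈ Cfsg.Geo.omegaGL (Cfsg.quadFormPlus d F) ∧ x ^ p = 1 ∧
      x ≠ 1 ∧ (x : Matrix (Fin d ⊕ Fin d) (Fin d ⊕ Fin d) F) - 1 = nil0 F d ∧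
      (∀ v, Cfsg.quadFormPlus d F ((x : Matrix (Fin d ⊕ Fin d) (Fin d ⊕ Fin d) F) *ᵥ v)
        = Cfsg.quadFormPlus d F v) := by
  have h : (1 - n0 F d) * (1 + n0 F d) = 1 := by
    have h1 : (1 - n0 F d) * (1 + n0 F d) = 1 - n0 F d * n0 F d := by noncomm_ring
    rw [h1, n0_mul_n0, sub_zero]
  have hval : (Matrix.fromBlocks (1 + n0 F d) 0 0 (1 - n0 F d)ᵀ
      : Matrix (Fin d ⊕ Fin d) (Fin d ⊕ Fin d) F) - 1 = nil0 F d := by
    rw [nil0, ← Matrix.fromBlocks_one, sub_eq_add_neg, Matrix.fromBlocks_neg,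
      Matrix.fromBlocks_add]
    congr 1
    · abel
    · simp
    · simp
    · rw [Matrix.transpose_sub, Matrix.transpose_one]
      abel
  have hA1 : (1 + n0 F d) ≠ 1 := by
    intro h1
    apply n0_ne_zero F d hd
    have : n0 F d = (1 + n0 F d) - 1 := by abel
    rw [this, h1, sub_self]
  have hcube : (Matrix.fromBlocks (1 + n0 F d) 0 0 (1 - n0 F d)ᵀ - 1
      : Matrix (Fin d ⊕ Fin d) (Fin d ⊕ Fin d) F) ^ 3 = 0 := by
    rw [hval, pow_succ, pow_two, nil0_mul_nil0, zero_mul]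
  obtain ⟨h1, h2, h3⟩ := uni_elt_of hPQ hOO p hp2 (by omega) (1 + n0 F d) (1 - n0 F d) h hA1 hcube
  exact ⟨blkGL _ _ h, h1, h2, h3, hval, fun v => quadFormPlus_blk _ _ h v⟩

end plus

end Cfsg.Agent.Lib.Helper13.OPar
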