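-- Team project OPAR (S5989), helper13: [UNIE] — the unipotent derangement for `d` even.
import Mathlib
import Cfsg.Agent.Lib.Helper13.OPar.UniBase

set_option autoImplicit false
open scoped MatrixGroups
open Matrix

namespace Cfsg.Agent.Lib.Helper13.OPar

open Cfsg.Agent.Lib.Helper23.OHyp Cfsg.Agent.Lib.Helper70.OPar

universe u

/-- The numerical core shared by [UNIE] and [UNI3]: for the element `x` with `x - 1 = nil0`,
an invariant nondegenerate `W` has `4a ≤ dim W`, `4b + dim W ≤ 2d`, `2 (d/2) ≤ 2a + 2b`. -/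
theorem uni0_core (F : Type u) [Field F] [Fintype F] (p : ℕ) [Fact p.Prime] [CharP F p]
    (hp2 : p ≠ 2) (d : ℕ) (x : GL (Fin d ⊕ Fin d) F)
    (hxN : (x : Matrix (Fin d ⊕ Fin d) (Fin d ⊕ Fin d) F) - 1 = nil0 F d)
    (hxiso : ∀ v, Cfsg.quadFormPlus d F ((x : Matrix (Fin d ⊕ Fin d) (Fin d ⊕ Fin d) F) *ᵥ v)
      = Cfsg.quadFormPlus d F v)
    (W : Submodule F (Fin d ⊕ Fin d → F))
    (hInv : Inv (x : Matrix (Fin d ⊕ Fin d) (Fin d ⊕ Fin d) F) W)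
    (hNd : Nd (Cfsg.quadFormPlus d F) W) :
    ∃ a b : ℕ, 4 * a ≤ Module.finrank F W ∧ 4 * b + Module.finrank F W ≤ d + d ∧
      d / 2 ≤ a + b := by
  have h2 : (2 : F) ≠ 0 := two_ne_zero_of_charP p hp2
  have hN : ((x : Matrix (Fin d ⊕ Fin d) (Fin d ⊕ Fin d) F) - 1)
      * ((x : Matrix (Fin d ⊕ Fin d) (Fin d ⊕ Fin d) F) - 1) = 0 := by
    rw [hxN, nil0_mul_nil0]
  have hdet : IsUnit (x : Matrix (Fin d ⊕ Fin d) (Fin d ⊕ Fin d) F).det :=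
    (Matrix.isUnit_iff_isUnit_det _).mp x.isUnit
  obtain ⟨a, b, h1, h3, h4⟩ := uni_core Cfsg.Agent.Lib.Helper87.OHyp.pkgPerp
    (Cfsg.quadFormPlus d F) (Cfsg.Agent.Lib.Helper84.OPar.pkgPlusQ F h2 d).1 h2
    (x : Matrix (Fin d ⊕ Fin d) (Fin d ⊕ Fin d) F) hxiso hdet hN W hInv hNd
  have h5 := rank_nil0 F d
  rw [← hxN] at h5
  rw [Fintype.card_sum, Fintype.card_fin] at h3
  exact ⟨a, b, h1, h3, by omega⟩

/-- [UNIE] -/
theorem pkgUniE : PkgUniE.{u} := by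
  intro F _ _ p _ _ hp2 d m hd hm hmd hde
  obtain ⟨x, hxO, hxp, hx1, hxN, hxiso⟩ := exists_uni0 Cfsg.Agent.Lib.Helper84.OPar.pkgPlusQ
    Cfsg.Agent.Lib.Helper97.OHyp.pkgOddOmega F p hp2 d (by omega)
  refine ⟨x, hxO, hxp, hx1, ?_⟩
  intro W hWm hNd hInv
  obtain ⟨a, b, h1, h3, h4⟩ := uni0_core F p hp2 d x hxN hxiso W hInv hNd
  obtain ⟨k, hk⟩ := hde
  obtain ⟨j, hj⟩ := hm
  omega

/-- [UNI3] -/
theorem pkgUni3 : PkgUni3.{u} := by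
  intro F _ _ p _ _ hp2 d m hd hm hmd hdo hm3
  obtain ⟨x, hxO, hxp, hx1, hxN, hxiso⟩ := exists_uni0 Cfsg.Agent.Lib.Helper84.OPar.pkgPlusQ
    Cfsg.Agent.Lib.Helper97.OHyp.pkgOddOmega F p hp2 d (by omega)
  refine ⟨x, hxO, hxp, hx1, ?_⟩
  intro W hWm hNd hInv
  obtain ⟨a, b, h1, h3, h4⟩ := uni0_core F p hp2 d x hxN hxiso W hInv hNd
  obtain ⟨k, hk⟩ := hdo
  obtain ⟨j, hj⟩ := hm
  omega

end Cfsg.Agent.Lib.Helper13.OPar
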